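import Cfsg.Agent.H48.HalfTransitive
import Cfsg.Agent.H19.Fitting
import Mathlib.GroupTheory.SpecificGroups.ZGroup

/-!
# The Fitting subgroup of an odd order group transitive on the nonzero vectors of an elementary abelian group
-/

set_option autoImplicit false
open scoped commutatorElement

namespace Cfsg.Agent.H48.RankOneFT

variable {D E : Type*} [Group D] [Finite D] [AddCommGroup E] [Finite E] [Nontrivial E]
  [DistribMulAction D E] [FaithfulSMul D E]
variable (hodd : Odd (Nat.card D)) {q : ℕ} (hq : q.Prime) (hE : ∀ e : E, q • e = 0)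
variable (htrans : ∀ a b : E, a ≠ 0 → b ≠ 0 → ∃ d : D, d • a = b)
include hodd hq hE htrans

/-- A normal subgroup of prime power order is cyclic and fixed-point-free. -/
theorem normal_pGroup (N : Subgroup D) [N.Normal] {p : ℕ} [Fact p.Prime] (hN : IsPGroup p N) :
    IsCyclic N ∧ ∀ g ∈ N, g ≠ 1 → ∀ a : E, g • a = a → a = 0 := by
  rcases eq_or_ne N ⊥ with rfl | hne
  · exact ⟨inferInstance, fun g hg h => absurd (Subgroup.mem_bot.1 hg) h⟩
  have hp2 : p ≠ 2 := by
    rintro rfl
    rcases hN.card_eq_or_dvd with h | h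
    · exact hne (Subgroup.eq_bot_of_card_eq _ h)
    · exact Nat.not_even_iff_odd.2 hodd
        (even_iff_two_dvd.2 (h.trans (Subgroup.card_subgroup_dvd_card N)))
  have : FaithfulSMul N E :=
    ⟨fun {x y} h => Subtype.ext (eq_of_smul_eq_smul fun e : E => h e)⟩
  have hconst : ∀ a b : E, a ≠ 0 → b ≠ 0 →
      Nat.card (MulAction.stabilizer N a) = Nat.card (MulAction.stabilizer N b) := by
    intro a b ha hb
    obtain ⟨d, rfl⟩ := htrans a b ha hb
    refine Nat.card_congr
      { toFun := fun x => ⟨⟨d * (x : N) * d⁻¹, Subgroup.Normal.conj_mem ‹_› _ (x : N).2 d⟩, by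
          change (d * ((x : N) : D) * d⁻¹) • (d • a) = d • a
          rw [mul_smul, mul_smul, inv_smul_smul, show ((x : N) : D) • a = a from x.2]⟩
        invFun := fun x => ⟨⟨d⁻¹ * (x : N) * d, by
            simpa using Subgroup.Normal.conj_mem ‹_› _ (x : N).2 d⁻¹⟩, by
          change (d⁻¹ * ((x : N) : D) * d) • a = a
          rw [mul_smul, mul_smul, show ((x : N) : D) • (d • a) = d • a from x.2, inv_smul_smul]⟩
        left_inv := fun x => by ext; simp [mul_assoc]
        right_inv := fun x => by ext; simp [mul_assoc] }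
  obtain ⟨h1, h2⟩ := Cfsg.Agent.H48.HalfTransitive.cyclic_and_fpf (V := E) hp2 hN hq hE hconst
  exact ⟨h1, fun g hg hg1 a ha => h2 ⟨g, hg⟩ (fun h => hg1 (congrArg Subtype.val h)) a ha⟩

/-- The Fitting subgroup is cyclic and fixed-point-free. -/
theorem fitting_props : IsCyclic ↥(Cfsg.fittingSubgroup D) ∧
    ∀ g ∈ Cfsg.fittingSubgroup D, g ≠ 1 → ∀ a : E, g • a = a → a = 0 := by
  classical
  set F := Cfsg.fittingSubgroup D
  have hFn : F.Normal := H19.fitting_normal D
  have hFnil : Group.IsNilpotent F := H19.fitting_isNilpotent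
  have hN : ∀ {p : ℕ} [Fact p.Prime] (P : Sylow p F),
      ((P : Subgroup F).map F.subtype).Normal := fun {p} _ P => by
    have hPn : (P : Subgroup F).Normal := inferInstance
    have := P.characteristic_of_normal hPn
    exact ConjAct.normal_of_characteristic_of_normal
  have : IsZGroup F := ⟨fun p hp P => by
    have := Fact.mk hp
    have := hN P
    have h := (normal_pGroup hodd hq hE htrans ((P : Subgroup F).map F.subtype) (P.2.map _)).1
    exact (MulEquiv.isCyclic ((P : Subgroup F).equivMapOfInjective _ F.subtype_injective)).2 h⟩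
  refine ⟨inferInstance, fun g hg hg1 a ha => ?_⟩
  have hn : orderOf g ≠ 1 := fun h => hg1 (orderOf_eq_one_iff.1 h)
  have : Fact (orderOf g).minFac.Prime := ⟨Nat.minFac_prime hn⟩
  set k := orderOf g / (orderOf g).minFac
  have hgo : orderOf (g ^ k) = (orderOf g).minFac :=
    orderOf_pow_orderOf_div (orderOf_pos g).ne' (Nat.minFac_dvd _)
  have hpg : IsPGroup (orderOf g).minFac (Subgroup.zpowers (⟨g ^ k, pow_mem hg k⟩ : F)) :=
    IsPGroup.of_card (n := 1) (by rw [Nat.card_zpowers, Subgroup.orderOf_mk, hgo, pow_one])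
  obtain ⟨P, hP⟩ := hpg.exists_le_sylow
  have := hN P
  refine (normal_pGroup hodd hq hE htrans ((P : Subgroup F).map F.subtype) (P.2.map _)).2 (g ^ k)
    ⟨_, hP (Subgroup.mem_zpowers _), rfl⟩ ?_ a ?_
  · intro h
    rw [h, orderOf_one] at hgo
    exact (Fact.out : (orderOf g).minFac.Prime).ne_one hgo.symm
  · exact MulAction.mem_stabilizer_iff.1 (pow_mem (MulAction.mem_stabilizer_iff.2 ha) k)

/-- For a solvable group the derived subgroup lies in the Fitting subgroup. -/
theorem commutator_le_fitting [Group.IsSolvable D] : commutator D ≤ Cfsg.fittingSubgroup D := by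
  set F := Cfsg.fittingSubgroup D
  have hFn : F.Normal := H19.fitting_normal D
  have hcyc : IsCyclic F := (fitting_props hodd hq hE htrans).1
  refine le_trans ?_ H19.centralizer_fitting_le
  have hcomm : ∀ f g : MulAut F, f * g = g * f := by
    intro f g
    obtain ⟨i, hi⟩ := MonoidHom.map_cyclic f.toMonoidHom
    obtain ⟨j, hj⟩ := MonoidHom.map_cyclic g.toMonoidHom
    ext x
    simp only [MulEquiv.coe_toMonoidHom] at hi hj
    simp only [MulAut.mul_apply, hi, hj, ← zpow_mul, mul_comm i j]
  rw [commutator_def, Subgroup.commutator_le]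
  intro x _ y _
  rw [Subgroup.mem_centralizer_iff]
  intro f hf
  have h : (MulAut.conjNormal : D →* MulAut F) ⁅x, y⁆ = 1 := by
    rw [map_commutatorElement, commutatorElement_eq_one_iff_mul_comm]
    exact hcomm _ _
  have h2 := congrArg Subtype.val (DFunLike.congr_fun h ⟨f, hf⟩)
  rw [MulAut.conjNormal_apply, MulAut.one_apply] at h2
  exact (mul_inv_eq_iff_eq_mul.1 h2).symm

end Cfsg.Agent.H48.RankOneFT
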