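import Cfsg.Agent.H48.RankOneFT.Fitting
import Cfsg.Agent.H48.RankOneNilpotent
import Cfsg.Agent.H48.Suzuki.Basic
import Mathlib.FieldTheory.Finite.Basic

/-!
# The rank-one set-up with solvable two-point stabiliser: `K` is a cyclic normal subgroup of `D`
-/

set_option autoImplicit false

namespace Cfsg.Agent.H48.RankOneFT

open Cfsg MulAction
open Cfsg.Agent

variable {G Ω : Type*} [Group G] [MulAction G Ω] [Finite G] [FaithfulSMul G Ω] {a : Ω} {t : G}
  {Q : Subgroup G}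
variable (hS : Cfsg.IsRankOneSetup G Ω a t Q)
variable (h2 : ∃ x y : G, x ≠ 1 ∧ y ≠ 1 ∧ x ≠ y ∧ x * x = 1 ∧ y * y = 1 ∧ x * y = y * x)

/-- The elements of order at most two fixing `a`. -/
def inv0 : Subgroup G where
  carrier := {x | x • a = a ∧ x * x = 1}
  one_mem' := ⟨one_smul _ _, one_mul 1⟩
  inv_mem' := fun {x} hx => ⟨by rw [inv_smul_eq_iff, hx.1],
    by rw [← mul_inv_rev, hx.2, inv_one]⟩
  mul_mem' := fun {x y} hx hy => by
    have hc : x * y = y * x := by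
      rcases eq_or_ne x 1 with rfl | h
      · rw [one_mul, mul_one]
      · exact RankOne.I₀_central hS h2 ⟨hx.1, h, hx.2⟩ (RankOne.mem_Q_of_mul_self hS hy.1 hy.2)
    refine ⟨by rw [mul_smul, hy.1, hx.1], ?_⟩
    calc x * y * (x * y) = x * (y * x) * y := by group
      _ = (x * x) * (y * y) := by rw [← hc]; group
      _ = 1 := by rw [hx.2, hy.2, one_mul]

/-- Membership. -/
theorem mem_inv0 {x : G} : x ∈ inv0 hS h2 ↔ x • a = a ∧ x * x = 1 := Iff.rfl

/-- The two-point stabiliser normalises these elements. -/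
theorem le_normalizer_inv0 :
    stabilizer G a ⊓ stabilizer G (t • a) ≤ Subgroup.normalizer (inv0 hS h2 : Set G) :=
  Subgroup.le_normalizer_iff.2 fun d hd x hx => by
    refine ⟨?_, ?_⟩
    · rw [mul_smul, mul_smul, show d⁻¹ • a = a from (inv_mem hd).1, hx.1]
      exact hd.1
    · calc d * x * d⁻¹ * (d * x * d⁻¹) = d * (x * x) * d⁻¹ := by group
        _ = 1 := by rw [hx.2, mul_one, mul_inv_cancel]

/-- Conjugation of the two-point stabiliser on the elements of order at most two. -/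
noncomputable def theta :
    ↥(stabilizer G a ⊓ stabilizer G (t • a)) →* MulAut (inv0 hS h2) :=
  (inv0 hS h2).normalizerMonoidHom.comp (Subgroup.inclusion (le_normalizer_inv0 hS h2))

/-- The action in coordinates. -/
theorem coe_theta (d : ↥(stabilizer G a ⊓ stabilizer G (t • a))) (x : inv0 hS h2) :
    (theta hS h2 d x : G) = d * x * (d : G)⁻¹ := rfl

/-- The kernel is `W`. -/
theorem theta_eq_one_iff (d : ↥(stabilizer G a ⊓ stabilizer G (t • a))) :
    theta hS h2 d = 1 ↔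
      (d : G) ∈ Subgroup.centralizer (Cfsg.involutionsIn (stabilizer G a : Set G)) := by
  rw [Subgroup.mem_centralizer_iff]
  constructor
  · intro h x hx
    have h1 := congrArg Subtype.val (DFunLike.congr_fun h (⟨x, hx.1, hx.2.2⟩ : inv0 hS h2))
    rw [coe_theta, MulAut.one_apply] at h1
    exact (mul_inv_eq_iff_eq_mul.1 h1).symm
  · intro h
    refine MulEquiv.ext fun x => Subtype.ext ?_
    rw [coe_theta, MulAut.one_apply]
    rcases eq_or_ne (x : G) 1 with hx | hx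
    · rw [hx, mul_one, mul_inv_cancel]
    · rw [← h x ⟨x.2.1, hx, x.2.2⟩, mul_inv_cancel_right]

include hS h2

/-- The distinguished generator of `K`. -/
theorem exists_generator (hsolv : Group.IsSolvable ↥(stabilizer G a ⊓ stabilizer G (t • a))) :
    ∃ k₀ : G, (Subgroup.zpowers k₀ : Set G) =
      Cfsg.invertedBy (stabilizer G a ⊓ stabilizer G (t • a)) t := by
  classical
  obtain ⟨⟨s, r⟩, ⟨hs, hr, e⟩, -⟩ := RankOne.structure_equation hS
  change s ∈ _ at hs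
  set D := stabilizer G a ⊓ stabilizer G (t • a) with hD
  set E := inv0 hS h2 with hEdef
  set A := (theta hS h2).range with hA
  let θ : ↥D →* A := (theta hS h2).rangeRestrict
  have hθ : Function.Surjective θ := MonoidHom.rangeRestrict_surjective _
  have hAodd : Odd (Nat.card A) :=
    hS.odd_card.of_dvd_nat (Subgroup.card_dvd_of_surjective θ hθ)
  have hEcomm : ∀ x y : E, x * y = y * x := by
    intro x y
    apply Subtype.ext
    rcases eq_or_ne (x : G) 1 with h | h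
    · simp [h]
    · exact RankOne.I₀_central hS h2 ⟨x.2.1, h, x.2.2⟩ (RankOne.mem_Q_of_mul_self hS y.2.1 y.2.2)
  letI : CommGroup E := { (inferInstance : Group E) with mul_comm := hEcomm }
  letI : DistribMulAction A (Additive E) :=
    { smul := fun f x => Additive.ofMul ((f : MulAut E) (Additive.toMul x))
      one_smul := fun x => rfl
      mul_smul := fun f g x => rfl
      smul_zero := fun f => congrArg Additive.ofMul (map_one (f : MulAut E))
      smul_add := fun f x y =>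
        congrArg Additive.ofMul (map_mul (f : MulAut E) (Additive.toMul x) (Additive.toMul y)) }
  have hsmul : ∀ (f : A) (x : E), f • Additive.ofMul x = Additive.ofMul ((f : MulAut E) x) :=
    fun _ _ => rfl
  have : FaithfulSMul A (Additive E) :=
    ⟨fun {f g} h => Subtype.ext (MulEquiv.ext fun x => Additive.ofMul.injective (h (Additive.ofMul x)))⟩
  have hs1 : (⟨s, hs.1, hs.2.2⟩ : E) ≠ 1 := fun h => hs.2.1 (congrArg Subtype.val h)
  have : Nontrivial (Additive E) :=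
    ⟨⟨Additive.ofMul ⟨s, hs.1, hs.2.2⟩, 0, fun h => hs1 (congrArg Additive.toMul h)⟩⟩
  have hE2 : ∀ x : Additive E, 2 • x = 0 := fun x => by
    rw [two_nsmul]
    exact congrArg Additive.ofMul (Subtype.ext (Additive.toMul x).2.2 : Additive.toMul x * Additive.toMul x = 1)
  have hmemI : ∀ x : E, x ≠ 1 → (x : G) ∈ Cfsg.involutionsIn (stabilizer G a : Set G) := fun x hx =>
    ⟨x.2.1, fun h => hx (Subtype.ext h), x.2.2⟩
  have htrans : ∀ u v : Additive E, u ≠ 0 → v ≠ 0 → ∃ f : A, f • u = v := by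
    intro u v hu hv
    obtain ⟨k, hk, hke⟩ := RankOne.K_transitive hS hs hr e (hmemI (Additive.toMul u) hu)
      (hmemI (Additive.toMul v) hv)
    refine ⟨θ ⟨k⁻¹, inv_mem hk.1⟩, congrArg Additive.ofMul (Subtype.ext ?_)⟩
    change k⁻¹ * _ * k⁻¹⁻¹ = _
    rw [inv_inv]
    exact hke
  obtain ⟨hcyc, hfpf⟩ := fitting_props hAodd Nat.prime_two hE2 htrans
  have : Group.IsSolvable A := Group.isSolvable_of_surjective hθ
  set F := Cfsg.fittingSubgroup A with hF
  have hfix : ∀ f ∈ F, (f : MulAut E) ⟨s, hs.1, hs.2.2⟩ = ⟨s, hs.1, hs.2.2⟩ → f = 1 := by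
    intro f hf h
    by_contra hf1
    exact hs1 (congrArg Additive.toMul (hfpf f hf hf1 (Additive.ofMul ⟨s, hs.1, hs.2.2⟩)
      (by rw [hsmul, h])))
  -- conjugation by `t`
  let τ : ↥D →* ↥D :=
    { toFun := fun d => ⟨t * d * t, RankOne.conj_t_mem_D hS d.2⟩
      map_one' := Subtype.ext (by simp [hS.mul_self])
      map_mul' := fun x y => Subtype.ext (by
        calc t * ((x * y : ↥D) : G) * t = t * (x : G) * 1 * (y : G) * t := by
              rw [Subgroup.coe_mul]; group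
          _ = _ := by rw [← hS.mul_self, Subgroup.coe_mul]; group) }
  have hker : θ.ker ≤ (θ.comp τ).ker := by
    intro d hd
    have hd' : theta hS h2 d = 1 := congrArg Subtype.val (MonoidHom.mem_ker.1 hd)
    have hW : (d : G) ∈ D ⊓ Subgroup.centralizer {t} ⊓
        Subgroup.centralizer (Cfsg.invertedBy D t) :=
      (RankOne.W_eq hS hs hr e).symm ▸ ⟨d.2, (theta_eq_one_iff hS h2 d).1 hd'⟩
    have : τ d = d := Subtype.ext (by
      change t * (d : G) * t = d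
      rw [← Subgroup.mem_centralizer_singleton_iff.1 hW.1.2, mul_assoc, hS.mul_self, mul_one])
    rw [MonoidHom.mem_ker, MonoidHom.comp_apply, this]
    exact MonoidHom.mem_ker.1 hd
  let σ : A →* A := MonoidHom.liftOfSurjective θ hθ ⟨θ.comp τ, hker⟩
  have hσ : ∀ d, σ (θ d) = θ (τ d) := fun d =>
    MonoidHom.liftOfRightInverse_comp_apply _ _ _ _ _
  have hσσ : ∀ f, σ (σ f) = f := fun f => by
    obtain ⟨d, rfl⟩ := hθ f
    rw [hσ, hσ]
    refine congrArg θ (Subtype.ext ?_)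
    change t * (t * d * t) * t = d
    calc t * (t * (d : G) * t) * t = (t * t) * d * (t * t) := by group
      _ = d := by rw [hS.mul_self, one_mul, mul_one]
  let σe : A ≃* A :=
    { toFun := σ, invFun := σ, left_inv := hσσ, right_inv := hσσ, map_mul' := map_mul σ }
  have hσF : ∀ f ∈ F, σ f ∈ F := fun f hf =>
    (Subgroup.characteristic_iff_le_comap.1 (H19.fitting_characteristic A) σe) hf
  have hKinv : ∀ k : ↥D, (k : G) ∈ Cfsg.invertedBy D t → τ k = k⁻¹ := fun k hk => Subtype.ext (by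
    have := hk.2
    rw [RankOne.t_inv hS] at this
    exact this)
  have hVK : ∀ d : ↥D, ∃ v k : ↥D, d = v * k ∧ τ v = v ∧ (k : G) ∈ Cfsg.invertedBy D t := by
    intro d
    obtain ⟨v, k, hvD, hvt, hk, hd⟩ := exists_factor hS.mul_self (X := D) (fun x hx => by
      rw [RankOne.t_inv hS]; exact RankOne.conj_t_mem_D hS hx) hS.odd_card d.2
    refine ⟨⟨v, hvD⟩, ⟨k, hk.1⟩, Subtype.ext hd, Subtype.ext ?_, hk⟩
    change t * v * t = v
    rw [show t * v = v * t from hvt, mul_assoc, hS.mul_self, mul_one]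
  have hodd' : ∀ f : A, Odd (orderOf f) := fun f => hAodd.of_dvd_nat (orderOf_dvd_natCard f)
  have hsq1 : ∀ f : A, f * f = 1 → f = 1 := fun f h => by
    by_contra hne
    have := orderOf_eq_prime (p := 2) (by rw [sq, h]) hne
    exact Nat.not_odd_iff_even.2 even_two (this ▸ hodd' f)
  have hfixσ : ∀ f ∈ F, σ f = f → f = 1 := by
    intro f hf h
    obtain ⟨d, rfl⟩ := hθ f
    obtain ⟨v, k, rfl, hv, hk⟩ := hVK d
    rw [hσ, map_mul τ, hv, hKinv k hk, map_mul, map_mul, map_inv, mul_right_inj] at h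
    have hk1 : θ k = 1 := hsq1 _ (by nth_rewrite 1 [← h]; rw [inv_mul_cancel])
    rw [map_mul, hk1, mul_one] at hf ⊢
    refine hfix _ hf (Subtype.ext ?_)
    change (theta hS h2 v ⟨s, hs.1, hs.2.2⟩ : G) = s
    rw [coe_theta]
    have hvt : (v : G) * t = t * v := by
      have h1 : t * (v : G) * t = v := congrArg Subtype.val hv
      calc (v : G) * t = t * v * t * t := by rw [h1]
        _ = t * v := by rw [mul_assoc, hS.mul_self, mul_one]
    rw [(RankOne.commute_t_iff hS hs hr e v.2).1 hvt, mul_inv_cancel_right]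
  have hFcomm : ∀ f ∈ F, ∀ g ∈ F, f * g = g * f := fun f hf g hg =>
    congrArg Subtype.val ((IsCyclic.isMulCommutative (α := F)).is_comm.comm ⟨f, hf⟩ ⟨g, hg⟩)
  have hσinv : ∀ f ∈ F, σ f = f⁻¹ := by
    intro f hf
    refine eq_inv_of_mul_eq_one_left (hfixσ _ (mul_mem (hσF f hf) hf) ?_)
    rw [map_mul, hσσ, hFcomm f hf _ (hσF f hf)]
  have hKF : ∀ k : ↥D, (k : G) ∈ Cfsg.invertedBy D t → θ k ∈ F := by
    intro k hk
    have hc : θ k * θ k ∈ Subgroup.centralizer (F : Set A) := by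
      rw [Subgroup.mem_centralizer_iff]
      intro f hf
      have hn : F.Normal := H19.fitting_normal A
      have h1 := hσinv _ (hn.conj_mem f hf (θ k))
      rw [map_mul, map_mul, map_inv, hσ, hKinv k hk, map_inv, inv_inv, hσinv f hf] at h1
      have h3 : (θ k)⁻¹ * f * θ k = θ k * f * (θ k)⁻¹ := inv_injective (by
        rw [← h1]; group)
      calc f * (θ k * θ k) = θ k * ((θ k)⁻¹ * f * θ k) * θ k := by group
        _ = θ k * (θ k * f * (θ k)⁻¹) * θ k := by rw [h3]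
        _ = θ k * θ k * f := by group
    have hmem : θ k * θ k ∈ F := H19.centralizer_fitting_le hc
    obtain ⟨j, hj⟩ := hodd' (θ k)
    have : θ k = ((θ k * θ k) ^ (j + 1)) := by
      rw [← sq, ← pow_mul, show 2 * (j + 1) = orderOf (θ k) + 1 by omega, pow_succ, pow_orderOf_eq_one,
        one_mul]
    rw [this]
    exact pow_mem hmem _
  have hsurjK : ∀ f ∈ F, ∃ k : ↥D, (k : G) ∈ Cfsg.invertedBy D t ∧ θ k = f := by
    intro f hf
    have hne : (f : MulAut E) ⟨s, hs.1, hs.2.2⟩ ≠ 1 := fun h => hs1 (by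
      exact (f : MulAut E).injective (h.trans (map_one _).symm))
    obtain ⟨j, hj, hje⟩ := RankOne.exists_K_conj hS hs hr e (hmemI _ hne)
    refine ⟨⟨j, hj.1⟩, hj, (inv_mul_eq_one.1 ?_)⟩
    refine hfix _ (mul_mem (inv_mem (hKF ⟨j, hj.1⟩ hj)) hf) ?_
    change ((θ ⟨j, hj.1⟩ : MulAut E))⁻¹ ((f : MulAut E) ⟨s, hs.1, hs.2.2⟩) = _
    rw [show (f : MulAut E) ⟨s, hs.1, hs.2.2⟩ = (θ ⟨j, hj.1⟩ : MulAut E) ⟨s, hs.1, hs.2.2⟩ from
      Subtype.ext hje, ← MulAut.mul_apply, inv_mul_cancel, MulAut.one_apply]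
  have hinjK : ∀ k k' : ↥D, (k : G) ∈ Cfsg.invertedBy D t → (k' : G) ∈ Cfsg.invertedBy D t →
      θ k = θ k' → k = k' := by
    intro k k' hk hk' h
    have h1 : (theta hS h2 k ⟨s, hs.1, hs.2.2⟩ : G) = theta hS h2 k' ⟨s, hs.1, hs.2.2⟩ := by
      rw [show theta hS h2 k = theta hS h2 k' from congrArg Subtype.val h]
    rw [coe_theta, coe_theta] at h1
    have h1' : (1 : G) ∈ Cfsg.invertedBy D t := ⟨one_mem D, by simp⟩
    have := RankOne.conj_injective hS hs hr e h1' (RankOne.K_inv hS hk) (RankOne.K_inv hS hk')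
      (by simpa using h1)
    exact Subtype.ext (inv_injective this)
  -- the generator
  obtain ⟨⟨g, hgF⟩, hgen⟩ := hcyc.exists_generator
  obtain ⟨k₀, hk₀, hk₀g⟩ := hsurjK g hgF
  have hpow : ∀ i : ℤ, ((k₀ ^ i : ↥D) : G) ∈ Cfsg.invertedBy D t := fun i => by
    refine ⟨(k₀ ^ i).2, ?_⟩
    rw [Subgroup.coe_zpow, ← conj_zpow, hk₀.2, inv_zpow]
  refine ⟨k₀, Set.Subset.antisymm ?_ fun k hk => ?_⟩
  · intro x hx
    obtain ⟨i, rfl⟩ := Subgroup.mem_zpowers_iff.1 hx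
    have := hpow i
    rwa [Subgroup.coe_zpow] at this
  · obtain ⟨i, hi⟩ := Subgroup.mem_zpowers_iff.1 (hgen ⟨θ ⟨k, hk.1⟩, hKF ⟨k, hk.1⟩ hk⟩)
    have hi' : θ (k₀ ^ i) = θ ⟨k, hk.1⟩ := by
      rw [map_zpow, hk₀g]
      exact congrArg Subtype.val hi
    have := congrArg Subtype.val (hinjK _ _ (hpow i) hk hi')
    rw [Subgroup.coe_zpow] at this
    exact ⟨i, this⟩

/-- `D` normalises `K`. -/
theorem conj_mem_K (hsolv : Group.IsSolvable ↥(stabilizer G a ⊓ stabilizer G (t • a))) {d c : G}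
    (hd : d ∈ stabilizer G a ⊓ stabilizer G (t • a))
    (hc : c ∈ Cfsg.invertedBy (stabilizer G a ⊓ stabilizer G (t • a)) t) :
    d * c * d⁻¹ ∈ Cfsg.invertedBy (stabilizer G a ⊓ stabilizer G (t • a)) t := by
  obtain ⟨k₀, hk₀⟩ := exists_generator hS h2 hsolv
  obtain ⟨v, k, hvD, hvt, hk, rfl⟩ := exists_factor hS.mul_self
    (X := stabilizer G a ⊓ stabilizer G (t • a)) (fun x hx => by
      rw [RankOne.t_inv hS]; exact RankOne.conj_t_mem_D hS hx) hS.odd_card hd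
  have hkc : k * c * k⁻¹ = c := by
    have h1 : k ∈ Subgroup.zpowers k₀ := by
      rw [← SetLike.mem_coe, hk₀]; exact hk
    have h3 : c ∈ Subgroup.zpowers k₀ := by
      rw [← SetLike.mem_coe, hk₀]; exact hc
    obtain ⟨i, rfl⟩ := Subgroup.mem_zpowers_iff.1 h1
    obtain ⟨j, rfl⟩ := Subgroup.mem_zpowers_iff.1 h3
    group
  refine ⟨mul_mem (mul_mem hd hc.1) (inv_mem hd), ?_⟩
  rw [show v * k * c * (v * k)⁻¹ = v * (k * c * k⁻¹) * v⁻¹ by group, hkc]
  have hc2 := hc.2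
  calc t * (v * c * v⁻¹) * t⁻¹ = (t * v * t⁻¹) * (t * c * t⁻¹) * (t * v * t⁻¹)⁻¹ := by group
    _ = (v * c * v⁻¹)⁻¹ := by
      rw [hc2, show t * v * t⁻¹ = v by rw [show t * v = v * t from hvt, mul_inv_cancel_right]]
      group

omit hS h2 in
/-- Automorphisms fixing a nonidentity element and normalising a regular cyclic group of
automorphisms of an elementary abelian group act as field automorphisms, so form a cyclic group. -/
theorem isCyclic_stabilizer {P : Type*} [Group P] [Finite P] {C : Subgroup (MulAut P)}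
    (hSu : Suzuki.Setup C) (hexp : ∀ x : P, x * x = 1) {s₀ : P} (hs₀1 : s₀ ≠ 1)
    (A : Subgroup (MulAut P)) (hfix : ∀ f ∈ A, f s₀ = s₀)
    (hnorm : ∀ f ∈ A, ∀ k ∈ C, f * k * f⁻¹ ∈ C) : IsCyclic A := by
  classical
  obtain ⟨F, _, _, _, ⟨Cd⟩⟩ := Suzuki.exists_coord hSu
  have homega : ∀ x : P, x ∈ Suzuki.omega hSu := fun x => hexp x
  have hw0 : Cd.χ s₀ ≠ 0 := fun h => hs₀1 (Cd.eq_one _ (homega _) h)
  choose pre hpre hpreχ using fun u : F => Cd.surj (u * Cd.χ s₀)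
  have hpre_eq : ∀ u x, Cd.χ x = u * Cd.χ s₀ → pre u = x := fun u x h =>
    Cd.inj (hpre u) (homega x) ((hpreχ u).trans h.symm)
  have hχadd : ∀ x y : P, Cd.χ (x * y) = Cd.χ x + Cd.χ y := fun x y =>
    Cd.map_mul x y (homega x) (homega y)
  have hdivs : ∀ x, pre (Cd.χ x / Cd.χ s₀) = x := fun x =>
    hpre_eq _ _ (div_mul_cancel₀ _ hw0).symm
  let g : A → F → F := fun f u => Cd.χ ((f : MulAut P) (pre u)) / Cd.χ s₀
  have g_def : ∀ f u, g f u = Cd.χ ((f : MulAut P) (pre u)) / Cd.χ s₀ := fun _ _ => rfl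
  have g_add : ∀ f u u', g f (u + u') = g f u + g f u' := by
    intro f u u'
    have : pre (u + u') = pre u * pre u' := hpre_eq _ _ (by rw [hχadd, hpreχ, hpreχ, add_mul])
    rw [g_def, g_def, g_def, this, map_mul, hχadd, add_div]
  have g_zero : ∀ f, g f 0 = 0 := fun f => by
    have : pre 0 = 1 := hpre_eq _ _ (by rw [Cd.map_one, zero_mul])
    rw [g_def, this, map_one, Cd.map_one, zero_div]
  have g_unit : ∀ (f : A) (k : C), g f (Cd.c k) =
      Cd.c ⟨(f : MulAut P) * k * (f : MulAut P)⁻¹, hnorm _ f.2 _ k.2⟩ := by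
    intro f k
    have h1 : pre (Cd.c k) = (k : MulAut P) s₀ := hpre_eq _ _ (Cd.equiv k _ (homega _))
    have h3 : (f : MulAut P)⁻¹ s₀ = s₀ := hfix _ (inv_mem f.2)
    have h4 := Cd.equiv ⟨(f : MulAut P) * k * (f : MulAut P)⁻¹, hnorm _ f.2 _ k.2⟩ s₀ (homega _)
    simp only [MulAut.mul_apply, h3] at h4
    rw [g_def, h1, h4, mul_div_assoc, div_self hw0, mul_one]
  have g_mul : ∀ f u u', g f (u * u') = g f u * g f u' := by
    intro f u u'
    rcases eq_or_ne u 0 with rfl | hu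
    · rw [zero_mul, g_zero, zero_mul]
    rcases eq_or_ne u' 0 with rfl | hu'
    · rw [mul_zero, g_zero, mul_zero]
    obtain ⟨k, hk⟩ := Cd.c.surjective (Units.mk0 u hu)
    obtain ⟨k', hk'⟩ := Cd.c.surjective (Units.mk0 u' hu')
    have e1 : u = Cd.c k := by rw [hk, Units.val_mk0]
    have e2 : u' = Cd.c k' := by rw [hk', Units.val_mk0]
    have e3 : u * u' = Cd.c (k * k') := by rw [map_mul, Units.val_mul, ← e1, ← e2]
    rw [e3, e1, e2, g_unit, g_unit, g_unit, ← Units.val_mul, ← map_mul]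
    refine congrArg (fun x : C => (Cd.c x : F)) (Subtype.ext ?_)
    change (f : MulAut P) * ((k : MulAut P) * k') * (f : MulAut P)⁻¹ =
      (f : MulAut P) * k * (f : MulAut P)⁻¹ * ((f : MulAut P) * k' * (f : MulAut P)⁻¹)
    group
  have g_inj : ∀ f, Function.Injective (g f) := fun f u u' h => by
    rw [g_def, g_def, div_left_inj' hw0] at h
    have h4 := congrArg Cd.χ ((f : MulAut P).injective (Cd.inj (homega _) (homega _) h))
    rw [hpreχ, hpreχ] at h4
    exact mul_right_cancel₀ hw0 h4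
  let φ : A → (F ≃+* F) := fun f =>
    { Equiv.ofBijective (g f) (Finite.injective_iff_bijective.1 (g_inj f)) with
      map_mul' := g_mul f, map_add' := g_add f }
  letI := ZMod.algebra F 2
  let Φ : A →* (F ≃ₐ[ZMod 2] F) :=
    MonoidHom.mk' (fun f => AlgEquiv.ofRingEquiv (f := φ f)
      (fun x => RingHom.congr_fun (Subsingleton.elim ((φ f : F →+* F).comp (algebraMap (ZMod 2) F))
        (algebraMap (ZMod 2) F)) x)) fun f f' => AlgEquiv.ext fun u => by
      change g (f * f') u = g f (g f' u)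
      rw [g_def f' u, g_def f, hdivs, g_def]
      rfl
  refine isCyclic_of_injective Φ ((injective_iff_map_eq_one Φ).2 fun f hf => Subtype.ext
    (MulEquiv.ext fun x => ?_))
  have h1 : g f (Cd.χ x / Cd.χ s₀) = Cd.χ x / Cd.χ s₀ := DFunLike.congr_fun hf (Cd.χ x / Cd.χ s₀)
  rw [g_def, hdivs, div_left_inj' hw0] at h1
  exact Cd.inj (homega _) (homega _) h1

/-- The image of `K` is regular on the involutions. -/
theorem setup_K {k₀ : G} (hk₀D : k₀ ∈ stabilizer G a ⊓ stabilizer G (t • a))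
    (hk₀ : (Subgroup.zpowers k₀ : Set G) =
      Cfsg.invertedBy (stabilizer G a ⊓ stabilizer G (t • a)) t) :
    Suzuki.Setup (Subgroup.zpowers (theta hS h2 ⟨k₀, hk₀D⟩)) := by
  classical
  obtain ⟨⟨s, r⟩, ⟨hs, hr, e⟩, -⟩ := RankOne.structure_equation hS
  change s ∈ _ at hs
  have hmemI : ∀ x : inv0 hS h2, x ≠ 1 → (x : G) ∈ Cfsg.involutionsIn (stabilizer G a : Set G) :=
    fun x hx => ⟨x.2.1, fun h => hx (Subtype.ext h), x.2.2⟩
  refine ⟨fun x => ⟨1, ?_⟩, fun k l => ?_, ?_, ?_⟩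
  · rw [pow_one, sq]
    exact Subtype.ext x.2.2
  · obtain ⟨_, i, rfl⟩ := k
    obtain ⟨_, j, rfl⟩ := l
    exact Subtype.ext ((Commute.refl _).zpow_zpow i j)
  · obtain ⟨s₁, s₂, h₁, h₂', hne⟩ := RankOne.exists_two_I₀ hS h2
    exact ⟨⟨s₁, h₁.1, h₁.2.2⟩, ⟨s₂, h₂'.1, h₂'.2.2⟩, fun h => hne (congrArg Subtype.val h),
      fun h => h₁.2.1 (congrArg Subtype.val h), Subtype.ext h₁.2.2,
      fun h => h₂'.2.1 (congrArg Subtype.val h), Subtype.ext h₂'.2.2⟩
  · intro x y hx _ hy _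
    obtain ⟨k, hk, hke⟩ := RankOne.K_transitive hS hs hr e (hmemI x hx) (hmemI y hy)
    have hk' : k⁻¹ ∈ Subgroup.zpowers k₀ := inv_mem (by rw [← SetLike.mem_coe, hk₀]; exact hk)
    obtain ⟨i, hi⟩ := Subgroup.mem_zpowers_iff.1 hk'
    refine ⟨⟨theta hS h2 ⟨k₀, hk₀D⟩ ^ i, i, rfl⟩, ?_, ?_⟩
    · apply Subtype.ext
      change ((theta hS h2 ⟨k₀, hk₀D⟩ ^ i) x : G) = y
      rw [← map_zpow, coe_theta, Subgroup.coe_zpow, hi, inv_inv, hke]
    · rintro ⟨_, j, rfl⟩ hfx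
      have h1 : (k₀ ^ j) * (x : G) * (k₀ ^ j)⁻¹ = y := by
        have h : ((theta hS h2 ⟨k₀, hk₀D⟩ ^ j) x : G) = y := congrArg Subtype.val hfx
        rwa [← map_zpow, coe_theta, Subgroup.coe_zpow] at h
      have hjK : k₀ ^ j ∈ Cfsg.invertedBy (stabilizer G a ⊓ stabilizer G (t • a)) t :=
        hk₀ ▸ zpow_mem (Subgroup.mem_zpowers k₀) j
      obtain ⟨i', hi', hie⟩ := RankOne.exists_K_conj hS hs hr e (hmemI x hx)
      rw [hie] at h1 hke
      have h3 := RankOne.conj_injective hS hs hr e hi' (RankOne.K_inv hS hjK) hk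
        (by rw [inv_inv, h1, hke])
      apply Subtype.ext
      change theta hS h2 ⟨k₀, hk₀D⟩ ^ j = theta hS h2 ⟨k₀, hk₀D⟩ ^ i
      rw [← map_zpow, ← map_zpow]
      refine congrArg (theta hS h2) (Subtype.ext ?_)
      rw [Subgroup.coe_zpow, Subgroup.coe_zpow, hi, ← h3, inv_inv]

/-- `V/W` is cyclic. -/
theorem exists_V_generator (hsolv : Group.IsSolvable ↥(stabilizer G a ⊓ stabilizer G (t • a))) :
    ∃ v ∈ (stabilizer G a ⊓ stabilizer G (t • a)) ⊓ Subgroup.centralizer {t},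
      ((stabilizer G a ⊓ stabilizer G (t • a)) ⊓ Subgroup.centralizer {t} ⊓
          Subgroup.centralizer (Cfsg.invertedBy (stabilizer G a ⊓ stabilizer G (t • a)) t)) ⊔
          Subgroup.closure {v} =
        (stabilizer G a ⊓ stabilizer G (t • a)) ⊓ Subgroup.centralizer {t} := by
  classical
  obtain ⟨⟨s, r⟩, ⟨hs, hr, e⟩, -⟩ := RankOne.structure_equation hS
  change s ∈ _ at hs
  obtain ⟨k₀, hk₀⟩ := exists_generator hS h2 hsolv
  have hk₀K : k₀ ∈ Cfsg.invertedBy (stabilizer G a ⊓ stabilizer G (t • a)) t :=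
    hk₀ ▸ Subgroup.mem_zpowers k₀
  have hSu := setup_K hS h2 hk₀K.1 hk₀
  let ι : ↥((stabilizer G a ⊓ stabilizer G (t • a)) ⊓ Subgroup.centralizer {t}) →*
      MulAut (inv0 hS h2) :=
    (theta hS h2).comp (Subgroup.inclusion inf_le_left)
  have hfix : ∀ f ∈ ι.range,
      f (⟨s, hs.1, hs.2.2⟩ : inv0 hS h2) = (⟨s, hs.1, hs.2.2⟩ : inv0 hS h2) := by
    rintro _ ⟨v, rfl⟩
    apply Subtype.ext
    change (v : G) * s * (v : G)⁻¹ = s
    rw [(RankOne.commute_t_iff hS hs hr e v.2.1).1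
      (Subgroup.mem_centralizer_singleton_iff.1 v.2.2), mul_inv_cancel_right]
  have hnorm : ∀ f ∈ ι.range, ∀ k ∈ Subgroup.zpowers (theta hS h2 ⟨k₀, hk₀K.1⟩),
      f * k * f⁻¹ ∈ Subgroup.zpowers (theta hS h2 ⟨k₀, hk₀K.1⟩) := by
    rintro _ ⟨v, rfl⟩ _ ⟨i, rfl⟩
    have hc : ((⟨k₀, hk₀K.1⟩ : ↥(stabilizer G a ⊓ stabilizer G (t • a))) ^ i : G) ∈
        Cfsg.invertedBy (stabilizer G a ⊓ stabilizer G (t • a)) t :=
      hk₀ ▸ zpow_mem (Subgroup.mem_zpowers k₀) i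
    have h := conj_mem_K hS h2 hsolv v.2.1 hc
    rw [← hk₀] at h
    obtain ⟨j, hj⟩ := Subgroup.mem_zpowers_iff.1 h
    refine Subgroup.mem_zpowers_iff.2 ⟨j, ?_⟩
    change theta hS h2 ⟨k₀, hk₀K.1⟩ ^ j = theta hS h2 ⟨v, v.2.1⟩ *
      theta hS h2 ⟨k₀, hk₀K.1⟩ ^ i * (theta hS h2 ⟨v, v.2.1⟩)⁻¹
    rw [← map_zpow, ← map_zpow, ← map_inv, ← map_mul, ← map_mul]
    exact congrArg (theta hS h2) (Subtype.ext hj)
  have hcyc : IsCyclic ι.range := isCyclic_stabilizer hSu (fun x => Subtype.ext x.2.2)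
    (s₀ := ⟨s, hs.1, hs.2.2⟩) (fun h => hs.2.1 (congrArg Subtype.val h)) ι.range hfix hnorm
  obtain ⟨⟨_, v₀, rfl⟩, hgen⟩ := hcyc.exists_generator
  refine ⟨v₀, v₀.2, le_antisymm (sup_le inf_le_left ((Subgroup.closure_le _).2 (by
    rintro x rfl; exact v₀.2))) fun v hv => ?_⟩
  obtain ⟨w₁, hw₁⟩ : ∃ w₁ : ↥((stabilizer G a ⊓ stabilizer G (t • a)) ⊓
      Subgroup.centralizer {t}), (w₁ : G) = v := ⟨⟨v, hv⟩, rfl⟩
  obtain ⟨i, hi⟩ := Subgroup.mem_zpowers_iff.1 (hgen ⟨ι w₁, w₁, rfl⟩)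
  have hpow : ι v₀ ^ i = ι w₁ := congrArg Subtype.val hi
  have hi' : theta hS h2 (Subgroup.inclusion inf_le_left (w₁ * (v₀ ^ i)⁻¹)) = 1 := by
    change ι (w₁ * (v₀ ^ i)⁻¹) = 1
    rw [map_mul, map_inv, map_zpow, hpow, mul_inv_cancel]
  have hW := (theta_eq_one_iff hS h2 _).1 hi'
  rw [Subgroup.coe_inclusion, Subgroup.coe_mul, InvMemClass.coe_inv, Subgroup.coe_zpow, hw₁] at hW
  have hW' : v * ((v₀ : G) ^ i)⁻¹ ∈ (stabilizer G a ⊓ stabilizer G (t • a)) ⊓
      Subgroup.centralizer {t} ⊓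
      Subgroup.centralizer (Cfsg.invertedBy (stabilizer G a ⊓ stabilizer G (t • a)) t) := by
    rw [RankOne.W_eq hS hs hr e]
    refine Subgroup.mem_inf.2 ⟨?_, hW⟩
    exact Subgroup.mul_mem (stabilizer G a ⊓ stabilizer G (t • a)) hv.1
      (Subgroup.inv_mem _ (Subgroup.zpow_mem _ v₀.2.1 i))
  rw [show v = v * ((v₀ : G) ^ i)⁻¹ * (v₀ : G) ^ i by rw [inv_mul_cancel_right]]
  have hz : (v₀ : G) ^ i ∈ Subgroup.closure ({(v₀ : G)} : Set G) :=
    Subgroup.zpow_mem _ (Subgroup.subset_closure (Set.mem_singleton _)) i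
  exact Subgroup.mul_mem_sup hW' hz

/-- A Sylow 2-subgroup of `Q` is abelian or a Suzuki 2-group. -/
theorem sylow_Q (hsolv : Group.IsSolvable ↥(stabilizer G a ⊓ stabilizer G (t • a)))
    (S : Sylow 2 ↥Q) :
    IsMulCommutative (S : Subgroup ↥Q) ∨ Cfsg.IsSuzukiTwoGroup ↥(S : Subgroup ↥Q) := by
  classical
  by_cases hab : IsMulCommutative (S : Subgroup ↥Q)
  · exact Or.inl hab
  refine Or.inr ?_
  obtain ⟨⟨s, r⟩, ⟨hs, hr, e⟩, -⟩ := RankOne.structure_equation hS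
  change s ∈ _ at hs
  obtain ⟨k₀, hk₀⟩ := exists_generator hS h2 hsolv
  haveI : Fact (Nat.Prime 2) := ⟨Nat.prime_two⟩
  haveI := RankOne.nilpotent_Q hS h2
  have hSn : (S : Subgroup ↥Q).Normal := inferInstance
  haveI := S.characteristic_of_normal hSn
  set P := (S : Subgroup ↥Q).map Q.subtype with hP
  have hPQ : P ≤ Q := Subgroup.map_subtype_le _
  have hk₀K : k₀ ∈ Cfsg.invertedBy (stabilizer G a ⊓ stabilizer G (t • a)) t :=
    hk₀ ▸ Subgroup.mem_zpowers k₀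
  have hP2 : ∀ {x : G}, x * x = 1 → x ∈ Q → x ∈ P := by
    intro x hx hxQ
    have hpg : IsPGroup 2 (Subgroup.zpowers (⟨x, hxQ⟩ : Q)) := by
      refine fun y => ⟨1, ?_⟩
      obtain ⟨_, i, rfl⟩ := y
      apply Subtype.ext
      have h1 : (⟨x, hxQ⟩ : Q) * ⟨x, hxQ⟩ = 1 := Subtype.ext hx
      change (_ ^ i) ^ (2 ^ 1) = 1
      rw [pow_one, ← zpow_natCast, ← zpow_mul, mul_comm, zpow_mul, zpow_natCast, sq, h1, one_zpow]
    obtain ⟨T, hT⟩ := hpg.exists_le_sylow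
    haveI := Sylow.unique_of_normal S hSn
    exact ⟨_, (Subsingleton.elim T S) ▸ hT (Subgroup.mem_zpowers _), rfl⟩
  have hN : Subgroup.zpowers k₀ ≤ Subgroup.normalizer (P : Set G) := by
    have hQn : Subgroup.zpowers k₀ ≤ Subgroup.normalizer (Q : Set G) := by
      rw [RankOne.normalizer_Q hS, Subgroup.zpowers_le]
      exact hk₀K.1.1
    refine Subgroup.le_normalizer_iff.2 fun k hk y hy => ?_
    obtain ⟨x, hx, rfl⟩ := hy
    refine ⟨Q.normalizerMonoidHom ⟨k, hQn hk⟩ x, ?_, rfl⟩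
    exact Subgroup.characteristic_iff_le_comap.1 inferInstance (Q.normalizerMonoidHom ⟨k, hQn hk⟩) hx
  let e' : ↥P ≃* ↥(S : Subgroup ↥Q) :=
    ((S : Subgroup ↥Q).equivMapOfInjective _ Q.subtype_injective).symm
  let ψ : Subgroup.zpowers k₀ →* MulAut ↥(S : Subgroup ↥Q) :=
    (MulAut.congr e').toMonoidHom.comp (P.normalizerMonoidHom.comp (Subgroup.inclusion hN))
  have hψ : ∀ (k : Subgroup.zpowers k₀) (x : ↥(S : Subgroup ↥Q)),
      ((ψ k x : ↥Q) : G) = k * ((x : ↥Q) : G) * (k : G)⁻¹ := by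
    intro k x
    have h1 : ∀ y : ↥P, ((e' y : ↥Q) : G) = y := fun y =>
      congrArg Subtype.val (e'.symm_apply_apply y)
    change ((e' _ : ↥Q) : G) = _
    rw [h1]
    rfl
  have hI : ∀ x : ↥(S : Subgroup ↥Q), x ≠ 1 → x * x = 1 →
      ((x : ↥Q) : G) ∈ Cfsg.involutionsIn (stabilizer G a : Set G) := fun x hx hx2 =>
    ⟨hS.le (x : ↥Q).2, fun h => hx (Subtype.ext (Subtype.ext h)),
      congrArg (fun y : ↥(S : Subgroup ↥Q) => ((y : ↥Q) : G)) hx2⟩
  have hSof : ∀ {u : G}, u ∈ Cfsg.involutionsIn (stabilizer G a : Set G) →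
      ∃ x : ↥(S : Subgroup ↥Q), ((x : ↥Q) : G) = u := by
    intro u hu
    obtain ⟨x, hx, hxu⟩ := hP2 hu.2.2 (RankOne.I₀_mem_Q hS hu)
    exact ⟨⟨x, hx⟩, hxu⟩
  refine ⟨inferInstance, S.2, ?_, ?_, ψ.range, isCyclic_of_surjective _ ψ.rangeRestrict_surjective, ?_⟩
  · by_contra hcon
    push Not at hcon
    exact hab ⟨⟨hcon⟩⟩
  · obtain ⟨s₁, s₂, h₁, h₂', hne⟩ := RankOne.exists_two_I₀ hS h2
    obtain ⟨x₁, hx₁⟩ := hSof h₁
    obtain ⟨x₂, hx₂⟩ := hSof h₂'
    refine ⟨x₁, x₂, fun h => hne (by rw [← hx₁, ← hx₂, h]), fun h => h₁.2.1 (by rw [← hx₁, h]; rfl),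
      Subtype.ext (Subtype.ext ?_), fun h => h₂'.2.1 (by rw [← hx₂, h]; rfl),
      Subtype.ext (Subtype.ext ?_)⟩
    · change ((x₁ : ↥Q) : G) * ((x₁ : ↥Q) : G) = 1
      rw [hx₁]; exact h₁.2.2
    · change ((x₂ : ↥Q) : G) * ((x₂ : ↥Q) : G) = 1
      rw [hx₂]; exact h₂'.2.2
  · intro x y hx hx2 hy hy2
    obtain ⟨k, hk, hke⟩ := RankOne.K_transitive hS hs hr e (hI x hx hx2) (hI y hy hy2)
    have hk' : k⁻¹ ∈ Subgroup.zpowers k₀ := inv_mem (by rw [← SetLike.mem_coe, hk₀]; exact hk)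
    refine ⟨⟨ψ ⟨k⁻¹, hk'⟩, _, rfl⟩, ?_, ?_⟩
    · apply Subtype.ext
      apply Subtype.ext
      change ((ψ ⟨k⁻¹, hk'⟩ x : ↥Q) : G) = _
      rw [hψ, inv_inv, hke]
    · rintro ⟨_, l, rfl⟩ hl
      have h1 : (l : G) * ((x : ↥Q) : G) * (l : G)⁻¹ = ((y : ↥Q) : G) := by
        rw [← hψ]
        exact congrArg (fun z : ↥(S : Subgroup ↥Q) => ((z : ↥Q) : G)) hl
      obtain ⟨i, hi, hie⟩ := RankOne.exists_K_conj hS hs hr e (hI x hx hx2)
      rw [hie] at h1 hke
      have hlK : (l : G) ∈ Cfsg.invertedBy (stabilizer G a ⊓ stabilizer G (t • a)) t := hk₀ ▸ l.2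
      have h3 := RankOne.conj_injective hS hs hr e hi (RankOne.K_inv hS hlK) hk
        (by rw [inv_inv, h1, hke])
      refine Subtype.ext (congrArg ψ (Subtype.ext ?_))
      change (l : G) = k⁻¹
      rw [← h3, inv_inv]

end Cfsg.Agent.H48.RankOneFT
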